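import Cfsg.Agent.H24.Base2
import Cfsg.Agent.H26.SylNum
import Cfsg.Agent.H26.AutP
import Cfsg.Agent.S0213
import Cfsg.Prelude.Def_TwoFusion

/-! Generic lemmas for the local analysis of elements of order five and seven. -/

set_option autoImplicit false
set_option linter.style.haveILetI false

namespace Cfsg.Agent.J4C

open Cfsg Subgroup H24

variable {G : Type*} [Group G]

theorem mc {a b : G} : a ∈ centralizer ({b} : Set G) ↔ a * b = b * a := mem_centralizer_singleton_iff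

theorem inv_sq {a : G} (h : a * a = 1) : a⁻¹ = a := inv_eq_of_mul_eq_one_right h

theorem sq_cj {a : G} (h : a * a = 1) (g : G) : g * a * g⁻¹ * (g * a * g⁻¹) = 1 := by
  rw [conj_mul, h]; simp

theorem sq_of_isConj {a b : G} (h : IsConj a b) (ha : a * a = 1) : b * b = 1 := by
  obtain ⟨g, rfl⟩ := isConj_iff.mp h; exact sq_cj ha g

theorem cj_comm {a b : G} (h : a * b = b * a) (g : G) : g * a * g⁻¹ * (g * b * g⁻¹) = g * b * g⁻¹ * (g * a * g⁻¹) := by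
  rw [conj_mul, conj_mul, h]

theorem ord2 {a : G} (h : a * a = 1) (n : a ≠ 1) : orderOf a = 2 :=
  haveI : Fact (Nat.Prime 2) := ⟨Nat.prime_two⟩
  orderOf_eq_prime (by rwa [pow_two]) n

theorem sq_of_ord {a : G} (h : orderOf a = 2) : a * a = 1 := by rw [← pow_two, ← h, pow_orderOf_eq_one]

theorem mem_zp2 {a w : G} (h : a * a = 1) (hw : w ∈ zpowers a) : w = 1 ∨ w = a := by
  obtain ⟨k, rfl⟩ := hw
  have h2 : a ^ (2 : ℤ) = 1 := by rw [zpow_two, h]
  rcases Int.even_or_odd' k with ⟨m, rfl | rfl⟩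
  · left; simp only; rw [zpow_mul, h2, one_zpow]
  · right; simp only; rw [zpow_add, zpow_mul, h2, one_zpow, one_mul, zpow_one]

theorem card_orb (H : Subgroup G) (x : G) :
    Nat.card H = {y | ∃ g ∈ H, g * x * g⁻¹ = y}.ncard * Nat.card (H ⊓ centralizer {x} : Subgroup G) := by
  let _ : MulAction H G := MulAction.compHom G ((MulAut.conj (G := G)).comp H.subtype)
  have h1 : {y | ∃ g ∈ H, g * x * g⁻¹ = y} = MulAction.orbit H x :=
    Set.ext fun y => ⟨fun ⟨g, hg, h⟩ => ⟨⟨g, hg⟩, h⟩, fun ⟨g, h⟩ => ⟨g, g.2, h⟩⟩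
  have h2 : MulAction.stabilizer H x = (H ⊓ centralizer {x}).subgroupOf H := by
    ext g
    rw [inf_subgroupOf_left, mem_subgroupOf, mc, ← mul_inv_eq_iff_eq_mul]; rfl
  rw [h1, ← MulAction.index_stabilizer, ← Nat.card_congr (subgroupOfEquivOfLe inf_le_left).toEquiv, ← h2, index_mul_card]

variable [Finite G]

/-- the involutions commuting with `y`, other than `y` -/
def Inv (C : Subgroup G) (y : G) : Set G := {w | w ∈ C ∧ w * w = 1 ∧ w ≠ 1 ∧ w ≠ y ∧ w * y = y * w}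

theorem pairs_le {x₁ x₂ y : G} (h₁ : orderOf x₁ = 2) (h₂ : orderOf x₂ = 2) (hnc : ¬ IsConj x₁ x₂) (hy : orderOf y = 2) {a : ℕ}
    (h : (Inv ⊤ y).ncard ≤ 2 * a) :
    Nat.card {p : G × G // IsConj x₁ p.1 ∧ IsConj x₂ p.2 ∧ y ∈ zpowers (p.1 * p.2)} ≤ a * a := by
  set Z := Inv ⊤ y ∩ {w | IsConj x₁ w}
  set T := Inv ⊤ y ∩ {w | IsConj x₂ w}
  have y2 := sq_of_ord hy
  have y1 : y ≠ 1 := by rintro rfl; simp at hy
  have k : ∀ {p q : G}, p * p = 1 → q * q = 1 → p ≠ 1 → q ≠ 1 → y ∈ zpowers (p * q) → p ∈ Inv ⊤ y := by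
    intro p q p2 q2 p1 q1 hy
    have c : ∀ {p q : G}, p * p = 1 → q * q = 1 → y ∈ zpowers (p * q) → p * y = y * p := by
      rintro p q p2 q2 ⟨n, hn⟩
      have e : p * (p * q) * p⁻¹ = (p * q)⁻¹ := by rw [← mul_assoc, p2, one_mul, mul_inv_rev, inv_sq q2]
      rw [← mul_inv_eq_iff_eq_mul, ← hn]
      simp only
      rw [← conj_zpow, e, inv_zpow, show (p * q) ^ n = y from hn, inv_sq y2]
    have hq : y ∈ zpowers (q * p) := by
      rw [← zpowers_inv, mul_inv_rev, inv_sq p2, inv_sq q2]; exact hy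
    refine ⟨trivial, p2, p1, fun e => ?_, c p2 q2 hy⟩
    subst e
    have := c q2 p2 hq
    rcases mem_zp2 (by rw [mul_assoc, ← mul_assoc q, this, mul_assoc, q2, mul_one, p2]) hy with e | e
    · exact p1 e
    · exact q1 (by simpa using e)
  have n1 : ∀ {x p : G}, orderOf x = 2 → IsConj x p → p * p = 1 ∧ p ≠ 1 := fun hx hp =>
    ⟨sq_of_isConj hp (sq_of_ord hx), fun e => by rw [e, isConj_one_left] at hp; rw [hp] at hx; simp at hx⟩
  have h1 : Nat.card {p : G × G // IsConj x₁ p.1 ∧ IsConj x₂ p.2 ∧ y ∈ zpowers (p.1 * p.2)} ≤ Nat.card (Z × T) := by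
    refine Nat.card_le_card_of_injective (fun p => (⟨p.1.1, k (n1 h₁ p.2.1).1 (n1 h₂ p.2.2.1).1 (n1 h₁ p.2.1).2
      (n1 h₂ p.2.2.1).2 p.2.2.2, p.2.1⟩, ⟨p.1.2, k (n1 h₂ p.2.2.1).1 (n1 h₁ p.2.1).1 (n1 h₂ p.2.2.1).2 (n1 h₁ p.2.1).2 ?_, p.2.2.1⟩)) ?_
    · rw [← zpowers_inv, mul_inv_rev, inv_sq (n1 h₁ p.2.1).1, inv_sq (n1 h₂ p.2.2.1).1]; exact p.2.2.2
    · intro p q e
      exact Subtype.ext (Prod.ext (congrArg (fun r : Z × T => (r.1 : G)) e) (congrArg (fun r : Z × T => (r.2 : G)) e))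
  rw [Nat.card_prod, Nat.card_coe_set_eq, Nat.card_coe_set_eq] at h1
  have h2 : Z.ncard + T.ncard ≤ 2 * a := by
    rw [← Set.ncard_union_eq (Set.disjoint_left.mpr fun w a b => hnc (a.2.trans b.2.symm))]
    exact (Set.ncard_le_ncard (Set.union_subset Set.inter_subset_left Set.inter_subset_left)).trans h
  nlinarith [sq_nonneg ((Z.ncard : ℤ) - T.ncard)]

theorem card_cent_sub (C : Subgroup G) (x : C) :
    Nat.card (centralizer ({x} : Set C)) = Nat.card (C ⊓ centralizer {(x : G)} : Subgroup G) := by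
  rw [← card_map_subtype]
  congr 2
  ext g
  constructor
  · rintro ⟨g, hg, rfl⟩; exact ⟨g.2, mc.mpr (congrArg Subtype.val (mc.mp hg))⟩
  · rintro ⟨h1, h2⟩; exact ⟨⟨g, h1⟩, mc.mpr (Subtype.ext (mc.mp h2)), rfl⟩

theorem inv_sub (C : Subgroup G) (x : C) : (Inv (⊤ : Subgroup C) x).ncard = (Inv C (x : G)).ncard := by
  rw [← Set.ncard_image_of_injective _ C.subtype_injective]
  congr 1
  ext g
  constructor
  · rintro ⟨g, ⟨-, a, b, c, d⟩, rfl⟩
    exact ⟨g.2, congrArg Subtype.val a, fun e => b (Subtype.ext e), fun e => c (Subtype.ext e), congrArg Subtype.val d⟩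
  · rintro ⟨h, a, b, c, d⟩
    exact ⟨⟨g, h⟩, ⟨trivial, Subtype.ext a, fun e => b (congrArg Subtype.val e), fun e => c (congrArg Subtype.val e),
      Subtype.ext d⟩, rfl⟩

theorem th_bound {C : Subgroup G} {x₁ x₂ : G} (m₁ : x₁ ∈ C) (m₂ : x₂ ∈ C) (h₁ : orderOf x₁ = 2) (h₂ : orderOf x₂ = 2)
    (hnc : ¬ IsConj x₁ x₂) (hall : ∀ w ∈ C, w * w = 1 → w ≠ 1 → ∃ g ∈ C, g * x₁ * g⁻¹ = w ∨ g * x₂ * g⁻¹ = w) {a b : ℕ}
    (ha : (Inv C x₁).ncard ≤ 2 * a) (hb : (Inv C x₂).ncard ≤ 2 * b) :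
    Nat.card C ≤ Nat.card (C ⊓ centralizer {x₂} : Subgroup G) * (a * a) +
      Nat.card (C ⊓ centralizer {x₁} : Subgroup G) * (b * b) := by
  have o₁ : orderOf (⟨x₁, m₁⟩ : C) = 2 := (orderOf_mk _ _).trans h₁
  have o₂ : orderOf (⟨x₂, m₂⟩ : C) = 2 := (orderOf_mk _ _).trans h₂
  have nc : ¬ IsConj (⟨x₁, m₁⟩ : C) ⟨x₂, m₂⟩ := fun h => hnc (C.subtype.map_isConj h)
  rw [S0213.result (⟨x₁, m₁⟩ : C) ⟨x₂, m₂⟩ o₁ o₂ nc fun w hw => by
    obtain ⟨g, hg, e⟩ := hall w w.2 (congrArg Subtype.val (sq_of_ord hw)) fun e => by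
      rw [show w = 1 from Subtype.ext e] at hw; simp at hw
    exact e.imp (fun e => isConj_iff.mpr ⟨⟨g, hg⟩, Subtype.ext e⟩) fun e => isConj_iff.mpr ⟨⟨g, hg⟩, Subtype.ext e⟩,
    card_cent_sub, card_cent_sub]
  exact Nat.add_le_add (Nat.mul_le_mul_left _ (pairs_le o₁ o₂ nc o₁ (by rwa [inv_sub])))
    (Nat.mul_le_mul_left _ (pairs_le o₁ o₂ nc o₂ (by rwa [inv_sub])))

/-- a central Sylow subgroup of prime order splits off -/
theorem cc {C : Subgroup G} {u : G} {p : ℕ} (hp : p.Prime) (hu : orderOf u = p) (hC : u ∈ C) (hc : ∀ c ∈ C, c * u = u * c)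
    (hn : ¬ p ^ 2 ∣ Nat.card C) : ∃ I, IsInternalDirectProduct (zpowers u) I C ∧ Nat.card C = p * Nat.card I ∧
      ∀ c ∈ C, ∀ n, c ^ n = 1 → n.Coprime p → c ∈ I := by
  have h1 : zpowers u ≤ C := zpowers_le.mpr hC
  have h2 : ∀ a ∈ zpowers u, ∀ c ∈ C, a * c = c * a := by
    rintro _ ⟨k, rfl⟩ c h; exact (Commute.zpow_right (hc c h) k).symm.eq
  haveI : ((zpowers u).subgroupOf C).Normal := normal_subgroupOf_of_le_normalizer' fun c h =>
    mem_normalizer_of_conj_mem fun a ha => by rwa [← h2 a ha c h, mul_inv_cancel_right]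
  have h3 : Nat.card ((zpowers u).subgroupOf C) = p := by rw [card_subgroupOf h1, Nat.card_zpowers, hu]
  have h4 := ((zpowers u).subgroupOf C).card_mul_index
  rw [h3] at h4
  obtain ⟨K, hK⟩ := exists_right_complement'_of_coprime (N := (zpowers u).subgroupOf C) (by
    rw [h3, hp.coprime_iff_not_dvd]
    exact fun h => hn (by rw [← h4, pow_two]; exact Nat.mul_dvd_mul_left _ h))
  have h5 : zpowers u ⊓ K.map C.subtype = ⊥ := eq_bot_iff.mpr (by
    rintro _ ⟨a, k, hk, rfl⟩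
    exact congrArg Subtype.val (hK.disjoint.le_bot ⟨a, hk⟩))
  have h6 : ∀ c ∈ C, ∃ a ∈ zpowers u, ∃ k ∈ K.map C.subtype, c = a * k := fun c h => by
    obtain ⟨⟨a, k⟩, e⟩ := hK.2 ⟨c, h⟩
    exact ⟨a, a.2, k, ⟨k, k.2, rfl⟩, (congrArg Subtype.val e).symm⟩
  refine ⟨K.map C.subtype, ⟨h1, map_subtype_le _, fun a ha b hb => h2 a ha b (map_subtype_le _ hb), h5,
    le_antisymm (sup_le h1 (map_subtype_le _)) fun c h => ?_⟩, ?_, fun c h n e hn => ?_⟩
  · obtain ⟨a, ha, k, hk, rfl⟩ := h6 c h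
    exact mul_mem (mem_sup_left ha) (mem_sup_right hk)
  · rw [card_map_subtype, ← hK.card_mul_card, h3]
  · obtain ⟨a, ha, k, hk, rfl⟩ := h6 c h
    rw [Commute.mul_pow (h2 a ha k (map_subtype_le _ hk))] at e
    have h7 : a ^ n = 1 := h5.le ⟨pow_mem ha n, (eq_inv_of_mul_eq_one_left e) ▸ (K.map C.subtype).inv_mem (pow_mem hk n)⟩
    have h8 : a ^ p = 1 := by rw [← hu, ← Nat.card_zpowers]; exact congrArg Subtype.val (pow_card_eq_one' (x := (⟨a, ha⟩ : zpowers u)))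
    rwa [show a = 1 by simpa [hn] using (pow_gcd_eq_one (n := p)).mpr ⟨h7, h8⟩, one_mul]

theorem syl_zp {H : Subgroup G} {u : G} {p : ℕ} [hp : Fact p.Prime] (hu : orderOf u = p) (hH : u ∈ H) (hn : ¬ p ^ 2 ∣ Nat.card H) :
    SylIn p (zpowers u) H := by
  have h1 : zpowers u ≤ H := zpowers_le.mpr hH
  refine sylIn_of_not_dvd h1 (IsPGroup.of_card (n := 1) (by rw [Nat.card_zpowers, hu, pow_one])) fun h => hn ?_
  rw [← card_mul_relIndex h1, Nat.card_zpowers, hu, pow_two]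
  exact Nat.mul_dvd_mul_left _ h

theorem conj_zp {H : Subgroup G} {u v : G} {p : ℕ} (hp : p.Prime) (hu : orderOf u = p) (hv : orderOf v = p) (h1 : u ∈ H) (h2 : v ∈ H)
    (hn : ¬ p ^ 2 ∣ Nat.card H) : ∃ g ∈ H, zpowers (g * u * g⁻¹) = zpowers v := by
  haveI : Fact p.Prime := ⟨hp⟩
  obtain ⟨g, hg, e⟩ := (syl_zp hu h1 hn).exists_cj_eq (syl_zp hv h2 hn)
  exact ⟨g, hg, by rw [← cj_zpowers, e]⟩

omit [Finite G] in
theorem cent_eq {u v : G} (h : zpowers u = zpowers v) : centralizer ({u} : Set G) = centralizer {v} := by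
  rw [← centralizer_zpowers, h, centralizer_zpowers]

theorem norm_card {u : G} {p : ℕ} (hp : p.Prime) (hu : orderOf u = p) (hn : ¬ p ^ 2 ∣ Nat.card G) :
    ∃ k n, k ∣ p - 1 ∧ Nat.card 𝐍[zpowers u] = Nat.card (centralizer ({u} : Set G)) * k ∧
      Nat.card 𝐍[zpowers u] * n = Nat.card G ∧ n % p = 1 % p := by
  haveI : Fact p.Prime := ⟨hp⟩
  obtain ⟨Q, hQ⟩ := sylIn_top_iff.mp (syl_zp (H := ⊤) hu trivial (by rwa [card_top]))
  have := card_sylow_modEq_one p G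
  rw [Sylow.card_eq_index_normalizer Q] at this
  refine ⟨_, _, H26.relIndex_centralizer_dvd_of_card_prime (P := zpowers u) hp (by rw [Nat.card_zpowers, hu]), ?_,
    card_mul_index _, hQ ▸ this⟩
  rw [← centralizer_zpowers, card_mul_relIndex (centralizer_le_normalizer' _)]

theorem gl_sl : Nonempty (GL (Fin 3) (ZMod 2) ≃* Matrix.SpecialLinearGroup (Fin 3) (ZMod 2)) := by
  refine ⟨(MulEquiv.ofBijective (Matrix.SpecialLinearGroup.toGL (n := Fin 3) (R := ZMod 2))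
    ⟨Matrix.SpecialLinearGroup.toGL_injective, fun g => ⟨⟨g, ?_⟩, Units.ext rfl⟩⟩).symm⟩
  have := Matrix.GeneralLinearGroup.det_ne_zero g
  revert this
  generalize (g : Matrix (Fin 3) (Fin 3) (ZMod 2)).det = d
  revert d; decide

end Cfsg.Agent.J4C
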