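import Cfsg.Agent.J4C.AbsC
import Cfsg.Agent.H21.Ja7
import Cfsg.Agent.H21.Cent7
import Cfsg.Agent.H21.Cent5

/-! Elements of order five and seven of the Mathieu group and the duads they fix. -/

set_option autoImplicit false
set_option maxRecDepth 100000
set_option linter.style.haveILetI false

namespace Cfsg.Agent.J4C

open Cfsg Cfsg.Agent.H16 Cfsg.Agent.LL Subgroup MulAction
open scoped Pointwise

/-- the centralizer is transitive on the duads of fixed points -/
structure Tr (σ : M24) (n m : ℕ) : Prop where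
  card : Nat.card (centralizer ({σ} : Set M24)) = n
  fix : (fixSet σ).card = m
  tr : ∃ S, ∀ T ⊆ fixSet σ, T.card = 2 → ∃ c, c * σ = σ * c ∧ c • S = T

theorem Tr.conj {σ τ g : M24} {n m : ℕ} (h : Tr σ n m) (e : zpowers (g * σ * g⁻¹) = zpowers τ) : Tr τ n m := by
  have e1 := cent_eq e
  have k : ∀ {a b : M24}, a ∈ zpowers b → fixSet b ⊆ fixSet a := by
    rintro _ b ⟨n, rfl⟩ x hx
    exact mem_fixSet.mpr (zpow_mem (show b ∈ stabilizer M24 x from mem_fixSet.mp hx) n)
  have e2 : fixSet τ = g • fixSet σ := by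
    rw [← fixSet_conj]; exact subset_antisymm (k (e ▸ mem_zpowers _)) (k (e ▸ mem_zpowers _))
  refine ⟨by rw [← e1, ← H24.cj_centralizer_singleton, H24.card_cj, h.card], by rw [e2, Finset.card_smul_finset, h.fix], ?_⟩
  obtain ⟨S, hS⟩ := h.tr
  refine ⟨g • S, fun T h1 h2 => ?_⟩
  obtain ⟨c, c1, c2⟩ := hS (g⁻¹ • T) (by rwa [e2, Finset.subset_smul_finset_iff] at h1) (by simpa using h2)
  exact ⟨g * c * g⁻¹, mc.mp (e1 ▸ mc.mpr (cj_comm c1 g)), by simp [mul_smul, c2]⟩

theorem duad_sub {σ : M24} (ho : Odd (orderOf σ)) {S : Finset GolayPt} (s : S.card = 2) (f : σ • S = S) : S ⊆ fixSet σ := by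
  obtain ⟨k, hk⟩ := ho
  intro x hx
  rw [mem_fixSet]
  by_contra n
  have h1 : σ • x ∈ S := f ▸ Finset.smul_mem_smul_finset hx
  have h2 : σ • σ • x ∈ S := f ▸ Finset.smul_mem_smul_finset h1
  rw [eq_pair s hx h1 (Ne.symm n), Finset.mem_insert, Finset.mem_singleton, smul_left_cancel_iff, ← mul_smul] at h2
  have h3 := pow_mem (show σ * σ ∈ stabilizer M24 x from h2.resolve_right n) k
  have h4 : σ * (σ * σ) ^ k = 1 := by rw [← pow_two, ← pow_mul, ← pow_succ', ← hk, pow_orderOf_eq_one]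
  exact n (by rw [eq_inv_of_mul_eq_one_left h4]; exact inv_mem h3)

theorem cent_fix {σ c : M24} (h : c * σ = σ * c) : c • fixSet σ = fixSet σ := by
  rw [← fixSet_conj, h, mul_inv_cancel_right]

theorem Tr.stab {σ : M24} {n m : ℕ} (h : Tr σ n m) (ho : Odd (orderOf σ)) {S : Finset GolayPt} (s : S.card = 2) (f : σ • S = S) :
    m.choose 2 * Nat.card (centralizer {σ} ⊓ stabilizer M24 S : Subgroup M24) = n := by
  have h1 : orbit (centralizer ({σ} : Set M24)) S = (fixSet σ).powersetCard 2 := by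
    ext T
    rw [Finset.mem_coe, Finset.mem_powersetCard]
    constructor
    · rintro ⟨c, rfl⟩
      exact ⟨cent_fix (mc.mp c.2) ▸ Finset.smul_finset_subset_smul_finset (duad_sub ho s f), by simpa using s⟩
    · rintro ⟨a, b⟩
      obtain ⟨S0, hS⟩ := h.tr
      obtain ⟨c, c1, rfl⟩ := hS T a b
      obtain ⟨d, d1, rfl⟩ := hS S (duad_sub ho s f) s
      exact ⟨⟨c * d⁻¹, mul_mem (mc.mpr c1) (inv_mem (mc.mpr d1))⟩, by simp [mul_smul]⟩
  have h2 : stabilizer (centralizer ({σ} : Set M24)) S = (centralizer {σ} ⊓ stabilizer M24 S).subgroupOf _ := by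
    ext g; rw [inf_subgroupOf_left, mem_subgroupOf]; rfl
  rw [← h.card, ← h.fix, ← Finset.card_powersetCard, ← Set.ncard_coe_finset, ← h1, ← index_stabilizer,
    ← Nat.card_congr (subgroupOfEquivOfLe inf_le_left).toEquiv, ← h2, index_mul_card]

theorem tr_of {σ : M24} {p : ℕ} (r : Rep gpt 24 σ (get 5 p)) {a b : ℕ} (L : List ℕ) (h : andB (andB (Nat.blt a 24) (Nat.blt b 24))
    (allB 24 fun i => allB 24 fun j => impB (Nat.beq (get 5 p i) i)
      (impB (Nat.beq (get 5 p j) j) (orB (Nat.beq i j) (anyL L fun c => andB (orB (andB (Nat.beq (get 5 c a) i)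
        (Nat.beq (get 5 c b) j)) (andB (Nat.beq (get 5 c a) j) (Nat.beq (get 5 c b) i))) (andB (isM24 c) (allB 24 fun x =>
          Nat.beq (get 5 c (get 5 p x)) (get 5 p (get 5 c x)))))))) = true) :
    ∃ S, ∀ T ⊆ fixSet σ, T.card = 2 → ∃ c, c * σ = σ * c ∧ c • S = T := by
  simp only [impB_iff, orB_iff, anyL_iff, andB_iff, allB_iff, Nat.beq_eq, Nat.blt_eq] at h
  refine ⟨{gpt a, gpt b}, fun T h1 h2 => ?_⟩
  obtain ⟨i, j, n, rfl⟩ := Finset.card_eq_two.mp h2
  obtain ⟨i, hi, rfl⟩ := exists_gpt i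
  obtain ⟨j, hj, rfl⟩ := exists_gpt j
  obtain ⟨c, -, c1, c3, c4⟩ := (h.2 i hi j hj (gpt_inj _ (r i hi).1 _ hi ((r i hi).2.symm.trans (mem_fixSet.mp (h1 (by simp)))))
    (gpt_inj _ (r j hj).1 _ hj ((r j hj).2.symm.trans (mem_fixSet.mp (h1 (by simp)))))).resolve_left fun e => n (e ▸ rfl)
  obtain ⟨g, s⟩ := exists_of_isM24 c3
  refine ⟨g, M24_ext fun x hx => ?_, ?_⟩
  · rw [mul_smul, mul_smul, (r x hx).2, (s x hx).2, (s _ (r x hx).1).2, (r _ (s x hx).1).2, c4 x hx]
  · rw [Finset.smul_finset_insert, Finset.smul_finset_singleton, (s a h.1.1).2, (s b h.1.2).2]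
    rcases c1 with ⟨e, f⟩ | ⟨e, f⟩ <;> rw [e, f]
    exact Finset.pair_comm _ _

theorem tr_t7 : Tr t7 42 3 := ⟨cent7, by rw [rep7.card_fixSet]; decide +kernel, tr_of rep7 (a := 6) (b := 11)
  [317466633243689634807599738554566058, 363057009363813803227495191056799236, 67830718735011639493166479415172202]
  (by decide +kernel)⟩

theorem tr_t5 : Tr t5 60 4 := ⟨cent5, by rw [rep5.card_fixSet]; decide +kernel, tr_of rep5 (a := 2) (b := 7)
  [181333081221903291804523340633873513, 845208712240397865270688826129058541, 359630479134255424707836703199639894,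
    686857609445903262951259324570809007, 231102103741290298049308068016659748, 914028200550565568253061002218191434]
  (by decide +kernel)⟩

theorem tr7 {σ : M24} (h : orderOf σ = 7) : Tr σ 42 3 :=
  let ⟨_, _, e⟩ := conj_zp (H := ⊤) (by norm_num) orderOf_7 h trivial trivial (by rw [card_top_M24]; norm_num)
  tr_t7.conj e

theorem tr5 {σ : M24} (h : orderOf σ = 5) : Tr σ 60 4 :=
  let ⟨_, _, e⟩ := conj_zp (H := ⊤) (by norm_num) orderOf_5 h trivial trivial (by rw [card_top_M24]; norm_num)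
  tr_t5.conj e

theorem stab7 {σ : M24} (h : orderOf σ = 7) {S : Finset GolayPt} (s : S.card = 2) (f : σ • S = S) :
    Nat.card (centralizer {σ} ⊓ stabilizer M24 S : Subgroup M24) = 14 := by
  have := (tr7 h).stab (by rw [h]; decide) s f
  rw [show Nat.choose 3 2 = 3 from rfl] at this; omega

theorem stab5 {σ : M24} (h : orderOf σ = 5) {S : Finset GolayPt} (s : S.card = 2) (f : σ • S = S) :
    Nat.card (centralizer {σ} ⊓ stabilizer M24 S : Subgroup M24) = 10 := by
  have := (tr5 h).stab (by rw [h]; decide) s f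
  rw [show Nat.choose 4 2 = 6 from rfl] at this; omega

theorem exists_cs : ∃ (c s : M24) (i j l : GolayPt), i ≠ j ∧ i ≠ l ∧ j ≠ l ∧ fixSet t7 = {i, j, l} ∧ c * t7 = t7 * c ∧ s * t7 = t7 * s ∧
    s * s = 1 ∧ c • i = j ∧ c • j = l ∧ c • l = i ∧ s • i = j ∧ s • j = i ∧ s • l = l := by
  obtain ⟨c, rc⟩ := exists_of_isM24 (p := 432436525883517201231625330487918896) (by decide +kernel)
  obtain ⟨s, rs⟩ := exists_of_isM24 (p := 420149584541138559000587588129718562) (by decide +kernel)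
  have k : ∀ {g : M24} {p : ℕ}, Rep gpt 24 g (get 5 p) → allB 24 (fun x => Nat.beq (get 5 p (get 5 z7 x)) (get 5 z7 (get 5 p x))) = true →
      g * t7 = t7 * g := fun r e => M24_ext fun x hx => by
    rw [mul_smul, mul_smul, (rep7 x hx).2, (r x hx).2, (r _ (rep7 x hx).1).2, (rep7 _ (r x hx).1).2,
      Nat.eq_of_beq_eq_true (allB_iff.mp e x hx)]
  have k2 : ∀ {g : M24} {p a b : ℕ}, Rep gpt 24 g (get 5 p) → a < 24 ∧ get 5 p a = b → g • gpt a = gpt b :=
    fun r e => e.2 ▸ (r _ e.1).2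
  refine ⟨c, s, gpt 6, gpt 11, gpt 14, by decide, by decide, by decide, ?_, k rc (by decide +kernel), k rs (by decide +kernel),
    M24_ext fun x hx => ?_, k2 rc (by decide +kernel), k2 rc (by decide +kernel), k2 rc (by decide +kernel),
    k2 rs (by decide +kernel), k2 rs (by decide +kernel), k2 rs (by decide +kernel)⟩
  · rw [rep7.fixSet_eq]; decide +kernel
  · rw [mul_smul, (rs x hx).2, (rs _ (rs x hx).1).2, one_smul, Nat.eq_of_beq_eq_true (allB_iff.mp (by decide +kernel :
      allB 24 (fun x => Nat.beq (get 5 420149584541138559000587588129718562 (get 5 420149584541138559000587588129718562 x)) x) = true) x hx)]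

end Cfsg.Agent.J4C
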