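import Cfsg.Agent.J4C.M

/-! The centralizer of an element of order seven in a simple group of Janko-four type. -/

set_option autoImplicit false
set_option maxRecDepth 100000
set_option linter.style.haveILetI false

namespace Cfsg.Agent.J4C

open Cfsg Cfsg.Agent.H16 Cfsg.Agent.LL Cfsg.Agent.LL.U6 Subgroup MulAction
open scoped Pointwise symmDiff

variable {G : Type*} [Group G] {z : G} {Q : Subgroup G} {ρ : centralizer ({z} : Set G) →* Γ} {p : G → V6} [Finite G]
  {m : FT z Q ρ p} {x : centralizer ({z} : Set G)} {b : ℕ → G} {d : ℕ → centralizer ({z} : Set G)}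
  {t : Finset GolayPt → G} {Φ : normalizer (m.AG : Set G) →* M24}

section
variable (k : JC m x b d t Φ)
include k

theorem card_ker : Nat.card Φ.ker = 2 ^ 11 := by
  rw [(Subgroup.ext k.ker : Φ.ker = m.AG.subgroupOf _), Nat.card_congr (subgroupOfEquivOfLe le_normalizer).toEquiv, k.h.cardA]

theorem no7 {a n : G} (ha : a ∈ m.AG) (hz : IsConj z a) (hn : n ∈ normalizer (m.AG : Set G)) (o : orderOf n = 7)
    (c : n * a = a * n) : False := by
  have h := k.h
  have k1 : (t '' {S | S.card = 2}).ncard = 276 := by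
    rw [Set.InjOn.ncard_image fun S a T b => h.inj (by simp [show S.card = 2 from a]) (by simp [show T.card = 2 from b])
      (by rw [a, b]; norm_num), H16.ncard_subsets]; rfl
  have a1 : a ≠ 1 := fun e => m.lx.ne_one (isConj_one_left.mp (e ▸ hz))
  have k2 : {v : G | ∃ n ∈ normalizer (m.AG : Set G), n * a * n⁻¹ = v} = ((m.AG : Set G) \ {1}) \ (t '' {S | S.card = 2}) := by
    ext v
    constructor
    · rintro ⟨n, hn, rfl⟩
      exact ⟨⟨(mem_normalizer_iff.mp hn _).mp ha, by simpa using a1⟩, fun ⟨S, a, b⟩ =>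
        h.not_conj a (b ▸ hz.trans (isConj_iff.mpr ⟨n, rfl⟩))⟩
    · rintro ⟨⟨a, b⟩, c⟩
      obtain ⟨g, rfl⟩ := isConj_iff.mp (hz.symm.trans (by_contra fun f => c ((h.duad v a b).mp f)))
      exact k.j.u11.fusion (fun _ => h.A_sq) h.cardA.ge ha a
  have k3 := card_orb (normalizer (m.AG : Set G)) a
  rw [k2, Set.ncard_sdiff (by rintro _ ⟨S, a, rfl⟩; exact ⟨h.mem S, h.ne_one a⟩), k1, Set.ncard_sdiff_singleton_of_mem m.AG.one_mem,
    show (m.AG : Set G).ncard = 2 ^ 11 from h.cardA, ← Φ.ker.card_mul_index, index_ker, MonoidHom.range_eq_top.mpr k.surj,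
    card_ker k, card_top_M24] at k3
  obtain ⟨e, he⟩ := o ▸ (normalizer (m.AG : Set G) ⊓ centralizer {a}).orderOf_dvd_natCard ⟨hn, mc.mpr c⟩
  rw [he] at k3
  omega

theorem exists_sec : ∃ κ : M24 →* normalizer (m.AG : Set G), ∀ g, Φ (κ g) = g := by
  obtain ⟨K, hK⟩ := k.split
  obtain ⟨-, ψ, h⟩ := hK.iso k.h.toMS
  refine ⟨(inclusion hK.le).comp ψ.symm.toMonoidHom, fun g => Subtype.ext (k.h.perm_eq fun S s => ?_)⟩
  have := h (ψ.symm g) S (by simp [s])
  rw [ψ.apply_symm_apply] at this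
  exact (k.act _ S (by simp [s])).symm.trans this

theorem exists_d7 (h49 : ¬ 7 ^ 2 ∣ Nat.card G) : ∃ u t0 t1 s y, D7 z u (centralizer {u})
    (centralizer {u} ⊓ normalizer (m.AG : Set G)) t0 t1 s y := by
  obtain ⟨κ, hκ⟩ := exists_sec k
  obtain ⟨c, s, i, j, l, ij, il, jl, fx, c7, s7, s2, ci, cj, cl, si, sj, sl⟩ := exists_cs
  have h := k.h
  have inj : Function.Injective κ := fun a b e => by rw [← hκ a, e, hκ]
  have ou : orderOf (κ t7 : G) = 7 := by rw [orderOf_coe, orderOf_injective κ inj, orderOf_7]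
  have cm : ∀ {g}, g * t7 = t7 * g → (κ g : G) ∈ centralizer {(κ t7 : G)} := fun e =>
    mc.mpr (by rw [← coe_mul, ← map_mul, e, map_mul, coe_mul])
  have act : ∀ g {a b : GolayPt}, a ≠ b → κ g * t {a, b} * (κ g : G)⁻¹ = t {g • a, g • b} := fun g a b n => by
    rw [k.act _ _ (by simp [n]), hκ, Finset.smul_finset_insert, Finset.smul_finset_singleton]
  have fi : t7 • i = i := mem_fixSet.mp (by simp [fx])
  have fj : t7 • j = j := mem_fixSet.mp (by simp [fx])
  have fl : t7 • l = l := mem_fixSet.mp (by simp [fx])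
  have tt : t {i, j} * t {j, l} = t {i, l} := by
    rw [← h.mul]; congr 1; ext y; simp only [Finset.mem_symmDiff, Finset.mem_insert, Finset.mem_singleton]; grind
  have tc : ∀ {a b : GolayPt}, a ≠ b → t7 • a = a → t7 • b = b → t {a, b} ∈ centralizer {(κ t7 : G)} := fun n e f =>
    mc.mpr (mul_inv_eq_iff_eq_mul.mp (by rw [act _ n, e, f])).symm
  have E : ∀ a ∈ m.AG, a ∈ centralizer {(κ t7 : G)} → a = 1 ∨ a = t {i, j} ∨ a = t {j, l} ∨ a = t {i, j} * t {j, l} := fun a ha e => by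
    refine or_iff_not_imp_left.mpr fun n => ?_
    obtain ⟨S, s, rfl⟩ := (h.duad a ha n).mp fun f => no7 k ha f (κ t7).2 ou (mc.mp e).symm
    have := duad_sub (by rw [orderOf_7]; decide) s (hκ t7 ▸ k.fix s (mc.mp e).symm)
    obtain ⟨a, b, ab, rfl⟩ := Finset.card_eq_two.mp s
    rw [fx, Finset.insert_subset_iff, Finset.singleton_subset_iff] at this
    simp only [Finset.mem_insert, Finset.mem_singleton] at this
    rw [tt]
    rcases this with ⟨rfl | rfl | rfl, rfl | rfl | rfl⟩ <;> simp_all [Finset.pair_comm]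
  have n0 := h.ne_one (Finset.card_pair ij)
  have n1 := h.ne_one (Finset.card_pair jl)
  have n2 := h.ne_one (Finset.card_pair il)
  have E4 : Nat.card (centralizer {(κ t7 : G)} ⊓ m.AG : Subgroup G) = 4 := by
    have : ((centralizer {(κ t7 : G)} ⊓ m.AG : Subgroup G) : Set G) = {1, t {i, j}, t {j, l}, t {i, j} * t {j, l}} := by
      ext a
      refine ⟨fun ha => E a ha.2 ha.1, ?_⟩
      rintro (rfl | rfl | rfl | rfl)
      exacts [one_mem _, ⟨tc ij fi fj, h.mem _⟩, ⟨tc jl fj fl, h.mem _⟩, mul_mem ⟨tc ij fi fj, h.mem _⟩ ⟨tc jl fj fl, h.mem _⟩]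
    rw [← SetLike.coe_sort_coe, this, Nat.card_coe_set_eq]
    refine Set.ncard_eq_four.mpr ⟨_, _, _, _, n0.symm, n1.symm, by rw [tt]; exact n2.symm, fun e => n2 ?_, by simpa using n1,
      by simpa using n0, rfl⟩
    rw [← tt, e, h.sq]
  have ck : ∀ B ≤ centralizer {(κ t7 : G)} ⊓ normalizer (m.AG : Set G), Nat.card B =
      Nat.card ((B.subgroupOf (normalizer (m.AG : Set G))).map Φ) * Nat.card (B ⊓ m.AG : Subgroup G) := fun B hB => by
    rw [← H24.card_subgroupOf (hB.trans inf_le_right), ← H10.card_map_mul_card_inf_ker Φ,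
      (Subgroup.ext k.ker : Φ.ker = m.AG.subgroupOf _),
      ← H24.card_subgroupOf (A := B ⊓ m.AG) (H := normalizer (m.AG : Set G)) (inf_le_right.trans le_normalizer)]
    rfl
  have mp : ∀ {n : normalizer (m.AG : Set G)}, (n : G) ∈ centralizer {(κ t7 : G)} → Φ n ∈ centralizer {t7} := fun {n} e =>
    mc.mpr (by rw [← hκ t7, ← map_mul, ← map_mul]; exact congrArg Φ (Subtype.ext (mc.mp e)))
  have cd := h.cent_duad k.j.u11 (h.mem _) (h.not_conj (Finset.card_pair ij)) n0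
  have L14 := stab7 orderOf_7 (Finset.card_pair ij) (by simp [Finset.smul_finset_insert, fi, fj])
  have s1 : κ s * t {j, l} * (κ s : G)⁻¹ = t {i, j} * t {j, l} := by rw [act _ jl, sj, sl, tt]
  have s0 : κ s * t {i, j} = t {i, j} * κ s := mul_inv_eq_iff_eq_mul.mp (by rw [act _ ij, si, sj, Finset.pair_comm])
  have qs : (κ s : G) * κ s = 1 := by rw [← coe_mul, ← map_mul, s2, map_one, coe_one]
  refine ⟨κ t7, t {i, j}, t {j, l}, κ s, κ c, ou, mc.mpr rfl, fun _ => mc.mp, fun d => h49 (d.trans (card_subgroup_dvd_card _)),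
    inf_le_left, ?_, ⟨tc ij fi fj, le_normalizer (h.mem _)⟩, ⟨tc jl fj fl, le_normalizer (h.mem _)⟩, ⟨cm s7, (κ s).2⟩, h.sq _, h.sq _,
    qs, n0, h.comm (h.mem _) (h.mem _), s0, s1, ⟨cm c7, (κ c).2⟩, by rw [act _ ij, ci, cj],
    by rw [act _ jl, cj, cl, tt, Finset.pair_comm], fun g hg => ?_, ?_, fun w w1 w2 w3 => ?_, h.not_conj (Finset.card_pair ij)⟩
  · have : ((centralizer {(κ t7 : G)} ⊓ normalizer (m.AG : Set G)).subgroupOf (normalizer (m.AG : Set G))).map Φ = centralizer {t7} :=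
      le_antisymm (by rintro _ ⟨n, hn, rfl⟩; exact mp hn.1) fun g hg => ⟨κ g, ⟨cm (mc.mp hg), (κ g).2⟩, hκ g⟩
    rw [ck _ le_rfl, inf_assoc, inf_eq_right.mpr le_normalizer, E4, this, cent7]
  · exact (E _ ((mem_normalizer_iff.mp hg.2 _).mp (h.mem _)) (mul_mem (mul_mem hg.1 (tc ij fi fj)) (inv_mem hg.1))).resolve_left
      (by simpa using n0)
  · rw [ck _ (inf_le_inf_left _ cd)]
    refine mul_dvd_mul (a := _) (b := 14) (d := 4) ((card_dvd_of_le ?_).trans L14.dvd)
      ((card_dvd_of_le (inf_le_inf_right _ inf_le_left)).trans E4.dvd)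
    rintro _ ⟨n, hn, rfl⟩
    exact ⟨mp hn.1, k.fix (Finset.card_pair ij) (mc.mp hn.2)⟩
  · let w' : normalizer (m.AG : Set G) := ⟨w, cd (mc.mpr w2)⟩
    obtain ⟨B, -, b1, b2⟩ := cc (C := centralizer {t7} ⊓ stabilizer M24 ({i, j} : Finset GolayPt)) (p := 7) (by norm_num) orderOf_7
      ⟨mc.mpr rfl, by simp [Finset.smul_finset_insert, fi, fj]⟩ (fun c hc => mc.mp hc.1) (by rw [L14]; norm_num)
    have b3 : zpowers s = B := H24.eq_of_le_of_card_le (zpowers_le.mpr (b2 s ⟨mc.mpr s7, by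
      simp [Finset.smul_finset_insert, si, sj, Finset.pair_comm]⟩ 2 (by rwa [pow_two]) (by norm_num))) (by
        rw [Nat.card_zpowers, ord2 s2 fun e => ij (by rw [← si, e, one_smul])]; omega)
    rcases mem_zp2 s2 (b3.ge (b2 (Φ w') ⟨mp w1, k.fix (Finset.card_pair ij) w2⟩ 2
      (by rw [pow_two, ← map_mul, show w' * w' = 1 from Subtype.ext w3, map_one]) (by norm_num))) with e | e
    · rcases E w ((k.ker w').mp e) w1 with f | f | f | f <;> simp [f]
    · have a1 : w * κ s ∈ m.AG := (k.ker (w' * κ s)).mp (by rw [map_mul, e, hκ, s2])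
      have a2 : κ s * (w * κ s) * (κ s : G)⁻¹ = w * κ s := by
        rw [mul_assoc, mul_inv_cancel_right, ← inv_sq (h.A_sq a1), mul_inv_rev, inv_sq w3, inv_sq qs]
      have a3 : w = w * κ s * κ s := by rw [mul_assoc, qs, mul_one]
      rcases E _ a1 (mul_mem w1 (cm s7)) with f | f | f | f <;> rw [f] at a2 a3
      · simp [a3]
      · simp [a3]
      · exact (n0 (by simpa [s1] using a2)).elim
      · rw [← conj_mul, s1, s0, mul_inv_cancel_right, mul_right_inj] at a2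
        exact (n0 (by simpa using a2)).elim

omit k in
theorem zside (j : JF m x) : ∃ u : G, orderOf u = 7 ∧ u * z = z * u ∧ u * x = x * u ∧
    Nat.card (centralizer {u} ⊓ centralizer {z} : Subgroup G) ∣ 2 ^ 14 * 21 := by
  haveI : Fact (Nat.Prime 7) := ⟨by norm_num⟩
  obtain ⟨θ, h1, -⟩ := j.theta
  obtain ⟨u, hu, ou⟩ := H24.exists_orderOf_eq_prime (p := 7) (H := centralizer {z} ⊓ centralizer {(x : G)})
    ((show 7 ∣ Nat.card K22 by rw [card_K22]; norm_num).trans (card_dvd_of_surjective θ h1))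
  refine ⟨u, ou, mc.mp hu.1, mc.mp hu.2, ?_⟩
  obtain ⟨π, -, p2⟩ := j.pi
  let φ := L22.subtype.comp π
  have k1 : Nat.card φ.ker ∣ 3 * 2 ^ 13 := by
    rw [← m.card_inf, ← U6.card_Z, ← m.card]
    refine mul_dvd_mul (card_dvd_of_le ?_) (card_dvd_of_le (map_le_iff_le_comap.mpr fun y hy => (m.ker y).mp hy.2))
    rintro _ ⟨y, hy, rfl⟩
    exact (p2 y).mp (Subtype.ext hy)
  let u' : centralizer ({z} : Set G) := ⟨u, hu.1⟩
  have o1 : orderOf u' = 7 := (orderOf_mk _ _).trans ou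
  have o2 : orderOf (φ u') = 7 := orderOf_eq_prime (by rw [← map_pow, ← o1, pow_orderOf_eq_one, map_one]) fun e => by
    have := (o1 ▸ φ.ker.orderOf_dvd_natCard e).trans k1
    norm_num at this
  have k2 := stab7 o2 (S := toSet 8388609) (by rw [toSet_pair]; decide) (π u').2
  rw [← H24.card_subgroupOf inf_le_right, ← H10.card_map_mul_card_inf_ker φ]
  refine (mul_dvd_mul ((card_dvd_of_le ?_).trans k2.dvd) ((card_dvd_of_le inf_le_right).trans k1)).trans (by norm_num)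
  rintro _ ⟨y, hy, rfl⟩
  exact ⟨mc.mpr (by rw [← map_mul, ← map_mul]; exact congrArg φ (Subtype.ext (mc.mp hy.1))), (π y).2⟩

theorem main7 (h49 : ¬ 7 ^ 2 ∣ Nat.card G) (u : G) (hu : orderOf u = 7) : Nat.card (centralizer ({u} : Set G)) = 840 ∧
    ∃ I, IsInternalDirectProduct (zpowers u) I (centralizer {u}) ∧ Nonempty (I ≃* Equiv.Perm (Fin 5)) := by
  obtain ⟨u0, t0, t1, s, y, h⟩ := exists_d7 k h49
  obtain ⟨u1, o1, a1, a2, a3⟩ := zside k.j
  obtain ⟨g, -, e⟩ := conj_zp (H := ⊤) (by norm_num) o1 h.ou trivial trivial (by rwa [card_top])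
  have e1 := cent_eq e
  obtain ⟨c, hc, f⟩ := h.cls (g * z * g⁻¹) (e1 ▸ mc.mpr (cj_comm a1.symm g)) (sq_cj m.lx.zz g) (by simpa using m.lx.ne_one)
  have f1 : ∀ {a}, c * a * c⁻¹ = g * z * g⁻¹ → c⁻¹ * g * z * (c⁻¹ * g)⁻¹ = a := fun {a} e => by
    rw [cjcj, ← e]; group
  replace f := f1 (f.resolve_right fun f => h.nz (isConj_iff.mpr ⟨_, f1 f⟩))
  have e2 : H24.cj (centralizer {u1}) (c⁻¹ * g) = centralizer {u0} := by
    rw [← H24.cj_cj, H24.cj_centralizer_singleton, e1, H24.cj_eq_of_mem (inv_mem hc)]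
  generalize c⁻¹ * g = n at f e2
  obtain ⟨b1, I, b2, ⟨b3⟩⟩ := h.main (x := n * x * n⁻¹) (k := 14) (isConj_iff.mpr ⟨n, f⟩) (e2 ▸ H24.conj_mem_cj (mc.mpr a2.symm) n)
    (by rw [← MulAut.conj_apply, MulEquiv.orderOf_eq, orderOf_coe, k.j.ord]) (f ▸ cj_comm (mc.mp x.2) n)
    (by rwa [← e2, ← f, ← H24.cj_centralizer_singleton, ← H24.cj_inf, H24.card_cj])
  obtain ⟨r, -, e⟩ := conj_zp (H := ⊤) (by norm_num) h.ou hu trivial trivial (by rwa [card_top])
  rw [← cent_eq e, ← e, ← H24.cj_centralizer_singleton, ← H24.cj_zpowers, H24.card_cj]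
  refine ⟨b1, H24.cj I r, ⟨H24.cj_mono b2.1 r, H24.cj_mono b2.2.1 r, fun a ha b hb => ?_, by rw [← H24.cj_inf, b2.2.2.2.1, H24.cj_bot],
    by rw [← H24.cj_sup, b2.2.2.2.2]⟩, ⟨(H24.cjEquiv I r).symm.trans b3⟩⟩
  obtain ⟨a', ha', rfl⟩ := H24.exists_of_mem_cj ha
  obtain ⟨b', hb', rfl⟩ := H24.exists_of_mem_cj hb
  exact cj_comm (b2.2.2.1 a' ha' b' hb') r

/-- the centralizer of an element of order seven has order `840` -/
theorem c7 (ord : Nat.card G = 86775571046077562880) (u : G) (hu : orderOf u = 7) : Nat.card (centralizer ({u} : Set G)) = 840 :=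
  (main7 k (by rw [ord]; norm_num) u hu).1

theorem n7 (ord : Nat.card G = 86775571046077562880) (u : G) (hu : orderOf u = 7) :
    Nat.card (normalizer (zpowers u : Set G)) = 2520 := by
  obtain ⟨e, n, h1, h2, h3, h4⟩ := norm_card (by norm_num) hu (by rw [ord]; norm_num)
  rw [c7 k ord u hu] at h2
  rw [h2, ord] at h3
  rw [h2]
  have : e ≤ 6 := Nat.le_of_dvd (by norm_num) h1
  interval_cases e <;> omega

end

end Cfsg.Agent.J4C
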