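import Cfsg.Agent.J4C.Gen

/-! The centralizer of an element of order seven: abstract part. -/

set_option autoImplicit false
set_option linter.style.haveILetI false

namespace Cfsg.Agent.J4C

open Cfsg Subgroup H24

variable {G : Type*} [Group G] [Finite G]

/-- local data in the centralizer `C` of an element `u` of order seven -/
structure D7 (z u : G) (C Y : Subgroup G) (t0 t1 s y : G) : Prop where
  ou : orderOf u = 7
  uC : u ∈ C
  cu : ∀ c ∈ C, c * u = u * c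
  n49 : ¬ 7 ^ 2 ∣ Nat.card C
  le : Y ≤ C
  card : Nat.card Y = 168
  m0 : t0 ∈ Y
  m1 : t1 ∈ Y
  ms : s ∈ Y
  q0 : t0 * t0 = 1
  q1 : t1 * t1 = 1
  qs : s * s = 1
  n0 : t0 ≠ 1
  c01 : t0 * t1 = t1 * t0
  s0 : s * t0 = t0 * s
  s1 : s * t1 * s⁻¹ = t0 * t1
  my : y ∈ Y
  y0 : y * t0 * y⁻¹ = t1
  y1 : y * t1 * y⁻¹ = t0 * t1
  per : ∀ g ∈ Y, g * t0 * g⁻¹ = t0 ∨ g * t0 * g⁻¹ = t1 ∨ g * t0 * g⁻¹ = t0 * t1
  c0 : Nat.card (C ⊓ centralizer {t0} : Subgroup G) ∣ 56
  inv : ∀ w ∈ C, w * t0 = t0 * w → w * w = 1 → w = 1 ∨ w = t0 ∨ w = t1 ∨ w = t0 * t1 ∨ w = s ∨ w = t0 * s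
  nz : ¬ IsConj z t0

namespace D7

variable {z u : G} {C Y : Subgroup G} {t0 t1 s y : G} (h : D7 z u C Y t0 t1 s y)
include h

omit [Finite G] in
theorem ns1 : s * t1 ≠ t1 * s := fun e => h.n0 (by
  have := h.s1; rw [e, mul_inv_cancel_right] at this; exact (mul_eq_right.mp this.symm))

omit [Finite G] in
theorem ns2 : s * (t0 * t1) ≠ t0 * t1 * s := fun e => h.ns1 (by
  rwa [← mul_assoc, h.s0, mul_assoc, mul_assoc, mul_right_inj] at e)

omit [Finite G] in
theorem t1s : t1 * s * t1⁻¹ = t0 * s := by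
  have := h.s1
  rw [inv_sq h.qs] at this
  rw [inv_sq h.q1]
  calc t1 * s * t1 = t1 * (s * t1 * s) * s := by simp [mul_assoc, h.qs]
    _ = _ := by rw [this, h.c01, ← mul_assoc, h.q1, one_mul]

theorem syl : ∃ P, SylIn 2 P C ∧ t0 ∈ P ∧ P ≤ centralizer {t0} ∧ ∀ v ∈ P, v ≠ 1 → v * v = 1 → P ≤ centralizer {v} → v = t0 := by
  haveI : Fact (Nat.Prime 2) := ⟨Nat.prime_two⟩
  have p2 : ∀ {a : G}, a * a = 1 → IsPGroup 2 (zpowers a) := fun e => isPGroup_zpowers (k := 1) (by rwa [pow_one, pow_two])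
  have e1 : IsPGroup 2 (zpowers t0 ⊔ zpowers t1 : Subgroup G) := isPGroup_sup_of_le_normalizer_right (p2 h.q0) (p2 h.q1)
    (le_normalizer_of_le_centralizer (by rw [centralizer_zpowers, zpowers_le]; exact mc.mpr h.c01))
  have e2 : IsPGroup 2 (zpowers s ⊔ (zpowers t0 ⊔ zpowers t1) : Subgroup G) := isPGroup_sup_of_le_normalizer_right (p2 h.qs) e1
    (zpowers_le.mpr (mem_normalizer_of_cj_le (by
      rw [cj_sup, cj_zpowers, cj_zpowers, h.s1, h.s0, mul_inv_cancel_right]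
      exact sup_le le_sup_left (zpowers_le.mpr (mul_mem (mem_sup_left (mem_zpowers _)) (mem_sup_right (mem_zpowers _)))))))
  obtain ⟨P, hP, le⟩ := exists_sylIn_le e2 (sup_le (zpowers_le.mpr (h.le h.ms))
    (sup_le (zpowers_le.mpr (h.le h.m0)) (zpowers_le.mpr (h.le h.m1))))
  have a0 : t0 ∈ P := le (mem_sup_right (mem_sup_left (mem_zpowers _)))
  have a1 : t1 ∈ P := le (mem_sup_right (mem_sup_right (mem_zpowers _)))
  have a2 : s ∈ P := le (mem_sup_left (mem_zpowers _))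
  have k : ∀ v ∈ P, v ≠ 1 → v * v = 1 → P ≤ centralizer {v} → v = t0 := fun v hv n e c => by
    rcases h.inv v (hP.1 hv) (mc.mp (c a0)).symm e with f | f | f | f | f | f
    · exact (n f).elim
    · exact f
    · exact (h.ns1 (f ▸ mc.mp (c a2))).elim
    · exact (h.ns2 (f ▸ mc.mp (c a2))).elim
    · exact (h.ns1 (f ▸ (mc.mp (c a1)).symm)).elim
    · have := mc.mp (c a1)
      rw [f, ← mul_assoc, ← h.c01, mul_assoc, mul_assoc, mul_right_inj] at this
      exact (h.ns1 this.symm).elim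
  obtain ⟨⟨v, hv⟩, n⟩ := ne_bot_iff_exists_ne_one.mp (center_ne_bot hP.2 fun e => h.n0 (e.le a0))
  obtain ⟨j, e⟩ := isPGroup_iff.mp hP.2 v hv.1
  obtain ⟨w, hw, n', e'⟩ := exists_pow_prime_of_ne_one e fun f => n (Subtype.ext f)
  have hw' := (zpowers_le.mpr hv) hw
  have c : P ≤ centralizer {w} := fun a ha => mc.mpr (hw'.2 a ha)
  exact ⟨P, hP, a0, k w hw'.1 n' (by rwa [← pow_two]) c ▸ c, k⟩

theorem cls (w : G) (hw : w ∈ C) (q : w * w = 1) (n : w ≠ 1) : ∃ g ∈ C, g * s * g⁻¹ = w ∨ g * t0 * g⁻¹ = w := by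
  haveI : Fact (Nat.Prime 2) := ⟨Nat.prime_two⟩
  obtain ⟨P, hP, -, c, -⟩ := h.syl
  obtain ⟨g, hg, e⟩ := hP.exists_cj_le (isPGroup_zpowers (x := w) (k := 1) (by rwa [pow_one, pow_two])) (zpowers_le.mpr hw)
  rw [cj_zpowers, zpowers_le] at e
  have k : ∀ a ∈ C, ∀ b, a * b * a⁻¹ = g * w * g⁻¹ → (g⁻¹ * a) * b * (g⁻¹ * a)⁻¹ = w := fun a _ b f => by
    calc _ = g⁻¹ * (a * b * a⁻¹) * g := by group
      _ = _ := by rw [f]; group
  have yC := h.le h.my
  rcases h.inv _ (hP.1 e) (mc.mp (c e)) (sq_cj q g) with f | f | f | f | f | f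
  · exact (n (by simpa using f)).elim
  · exact ⟨_, mul_mem (inv_mem hg) (one_mem _), Or.inr (k 1 (one_mem _) _ (by simp [f]))⟩
  · exact ⟨_, mul_mem (inv_mem hg) yC, Or.inr (k y yC _ (h.y0.trans f.symm))⟩
  · exact ⟨_, mul_mem (inv_mem hg) (mul_mem yC yC), Or.inr (k _ (mul_mem yC yC) _ (by
      rw [f, ← h.y1, ← h.y0]; group))⟩
  · exact ⟨_, mul_mem (inv_mem hg) (one_mem _), Or.inl (k 1 (one_mem _) _ (by simp [f]))⟩
  · exact ⟨_, mul_mem (inv_mem hg) (h.le h.m1), Or.inl (k _ (h.le h.m1) _ (h.t1s.trans f.symm))⟩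

variable {x : G} (zs : IsConj z s) (xC : x ∈ C) (ox : orderOf x = 3) (xs : x * s = s * x) {k : ℕ}
  (hs : Nat.card (C ⊓ centralizer {s} : Subgroup G) ∣ 2 ^ k * 21)
include zs

omit [Finite G] in
theorem sn : s ≠ 1 := fun e => h.ns1 (by simp [e])

include hs in
theorem cs : Nat.card (C ⊓ centralizer {s} : Subgroup G) ∣ 84 := by
  haveI : Fact (Nat.Prime 2) := ⟨Nat.prime_two⟩
  obtain ⟨P, hP, -, c, v⟩ := h.syl
  obtain ⟨R, hR, le⟩ := exists_sylIn_le (isPGroup_zpowers (x := s) (p := 2) (k := 1) (by rw [pow_one, pow_two, h.qs]))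
    (zpowers_le.mpr (show s ∈ C ⊓ centralizer {s} from ⟨h.le h.ms, mc.mpr rfl⟩))
  have a1 : Nat.card P ∣ 56 := (card_dvd_of_le (le_inf hP.1 c)).trans h.c0
  obtain ⟨g, hg, e⟩ := hP.exists_cj_le hR.2 (hR.1.trans inf_le_left)
  have a2 : ¬ 8 ∣ Nat.card R := fun d => by
    have a3 : cj R g = P := eq_of_le_of_card_le e (by
      obtain ⟨n, hn⟩ := exists_card_eq_pow hP.2
      rw [card_cj, hn]
      refine le_trans (Nat.le_of_dvd (by norm_num) ?_) (Nat.le_of_dvd (card_pos' R) d)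
      exact (Nat.Coprime.pow_left n (by norm_num : Nat.Coprime 2 7)).dvd_of_dvd_mul_right (show 2 ^ n ∣ 8 * 7 from hn ▸ a1))
    have := v (g * s * g⁻¹) (e (conj_mem_cj (le (mem_zpowers s)) g)) (by simpa using h.sn zs) (sq_cj h.qs g) (by
      rw [← a3, ← cj_centralizer_singleton]; exact cj_mono (hR.1.trans inf_le_right) g)
    exact h.nz (zs.trans (isConj_iff.mpr ⟨g, this⟩))
  have a4 := card_mul_relIndex hR.1
  have a5 := hR.not_dvd_relIndex
  obtain ⟨n, hn⟩ := exists_card_eq_pow hR.2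
  rw [hn] at a2 a4
  have a6 : n ≤ 2 := by
    by_contra! l
    exact a2 (pow_dvd_pow 2 l)
  rw [← a4] at hs ⊢
  refine mul_dvd_mul (pow_dvd_pow 2 a6) (show _ ∣ 21 from ?_)
  exact (Nat.Coprime.pow_right k ((Nat.Prime.coprime_iff_not_dvd Nat.prime_two).mpr a5).symm).dvd_of_dvd_mul_left
    ((Dvd.intro_left _ rfl).trans hs)

include xC ox xs hs in
theorem inv_s : (Inv C s).ncard ≤ 2 * 3 := by
  have b := h.cs zs hs
  obtain ⟨B, -, b1, b2⟩ := cc (C := C ⊓ centralizer {s}) (p := 7) (by norm_num) h.ou ⟨h.uC, mc.mpr (h.cu s (h.le h.ms)).symm⟩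
    (fun c hc => h.cu c hc.1) fun d => absurd (d.trans b) (by norm_num)
  have x3 : x ^ 3 = 1 := ox ▸ pow_orderOf_eq_one x
  have cm : Commute s x := xs.symm
  have o6 : orderOf (s * x) = 6 := by
    rw [cm.orderOf_mul_eq_mul_orderOf_of_coprime (by rw [ord2 h.qs (h.sn zs), ox]; norm_num), ord2 h.qs (h.sn zs), ox]
  have b3 : zpowers (s * x) ≤ B := zpowers_le.mpr (b2 _ (mul_mem ⟨h.le h.ms, mc.mpr rfl⟩ ⟨xC, mc.mpr xs⟩) 6
    (o6 ▸ pow_orderOf_eq_one _) (by norm_num))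
  have b4 : Inv C s ⊆ (B : Set G) \ zpowers (s * x) := fun w ⟨w1, w2, w3, w4, w5⟩ =>
    ⟨b2 w ⟨w1, mc.mpr w5⟩ 2 (by rwa [pow_two]) (by norm_num), fun f => by
      obtain ⟨n, rfl⟩ := (mem_powers_iff_mem_zpowers.mpr f : w ∈ Submonoid.powers (s * x))
      simp only at *
      have e1 : (x ^ n) ^ 2 = 1 := by
        rw [← pow_two, ← pow_mul, cm.mul_pow, mul_comm n 2, pow_mul s, pow_two s, h.qs, one_pow, one_mul] at w2
        rwa [← pow_mul, mul_comm]
      have e2 : (x ^ n) ^ 3 = 1 := by rw [pow_right_comm, x3, one_pow]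
      have e3 : x ^ n = 1 := by simpa using (pow_gcd_eq_one (n := 3)).mpr ⟨e1, e2⟩
      rw [cm.mul_pow, e3, mul_one] at w3 w4
      exact (mem_zp2 h.qs (npow_mem_zpowers s n)).elim w3 w4⟩
  refine (Set.ncard_le_ncard b4).trans ?_
  rw [Set.ncard_sdiff b3, show (B : Set G).ncard = Nat.card B from (Nat.card_coe_set_eq _).symm,
    show (zpowers (s * x) : Set G).ncard = Nat.card (zpowers (s * x)) from (Nat.card_coe_set_eq _).symm, Nat.card_zpowers, o6]
  have := Nat.le_of_dvd (by norm_num) b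
  omega

omit zs in
theorem inv_t : (Inv C t0).ncard ≤ 2 * 2 := by
  refine (Set.ncard_le_ncard (t := {t1, t0 * t1, s, t0 * s}) fun w hw => ?_).trans ?_
  · obtain ⟨w1, w2, w3, w4, w5⟩ := hw
    rcases h.inv w w1 w5 w2 with f | f | f <;> [exact (w3 f).elim; exact (w4 f).elim; exact f]
  · exact (Set.ncard_insert_le _ _).trans (Nat.succ_le_succ ((Set.ncard_insert_le _ _).trans
      (Nat.succ_le_succ ((Set.ncard_insert_le _ _).trans (by simp)))))

include xC ox xs hs in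
theorem le840 : Nat.card C ≤ 840 := by
  have := th_bound (h.le h.ms) (h.le h.m0) (ord2 h.qs (h.sn zs)) (ord2 h.q0 h.n0) (fun e => h.nz (zs.trans e)) h.cls
    (h.inv_s zs xC ox xs hs) h.inv_t
  have := Nat.le_of_dvd (by norm_num) h.c0
  have := Nat.le_of_dvd (by norm_num) (h.cs zs hs)
  omega

include xC ox xs in
theorem core {N : Subgroup G} (hN : N ≤ Y) (hn : C ≤ 𝐍[N]) : Nat.card N ∣ 7 := by
  have a1 : t0 ∉ N := fun f => by
    have b1 := hN (conj_mem_of_mem_normalizer (hn xC) f)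
    have b2 : x * t0 * x⁻¹ * s = s * (x * t0 * x⁻¹) := by
      have := cj_comm h.s0 x
      rwa [xs, mul_inv_cancel_right, eq_comm] at this
    have b3 : x * t0 * x⁻¹ = t0 := by
      have b4 : IsConj t0 (x * t0 * x⁻¹) := isConj_iff.mpr ⟨x, rfl⟩
      have b5 := sq_cj h.q0 x
      generalize x * t0 * x⁻¹ = w at *
      have b6 := cj_comm h.s0 w
      rw [b2, mul_inv_cancel_right] at b6
      have b7 : w * t0 * w⁻¹ = t0 := ((h.per w b1).resolve_right fun l => l.elim (fun l => h.ns1 (l ▸ b6)) fun l => h.ns2 (l ▸ b6))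
      rcases h.inv w (h.le b1) (mul_inv_eq_iff_eq_mul.mp b7) b5 with l | l | l | l | l | l
      · exact (h.n0 (isConj_one_left.mp (l ▸ b4))).elim
      · exact l
      · exact (h.ns1 (l ▸ b2.symm)).elim
      · exact (h.ns2 (l ▸ b2.symm)).elim
      · exact (h.nz (zs.trans (l ▸ b4).symm)).elim
      · exact (h.nz ((zs.trans (isConj_iff.mpr ⟨t1, h.t1s⟩)).trans (l ▸ b4).symm)).elim
    have := (ox ▸ (C ⊓ centralizer {t0}).orderOf_dvd_natCard ⟨xC, mc.mpr (mul_inv_eq_iff_eq_mul.mp b3)⟩).trans h.c0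
    norm_num at this
  have a2 : ∀ w ∈ N, w * w = 1 → w = 1 := fun w hw q => by_contra fun n => by
    obtain ⟨g, hg, e⟩ := h.cls w (h.le (hN hw)) q n
    have k : ∀ {a}, g * a * g⁻¹ = w → a ∈ N := fun e => by
      simpa [← e, mul_assoc] using conj_mem_of_mem_normalizer' (hn hg) hw
    rcases e with e | e
    · have := mul_mem (conj_mem_of_mem_normalizer (hn (h.le h.m1)) (k e)) (k e)
      rw [h.t1s, mul_assoc, h.qs, mul_one] at this
      exact a1 this
    · exact a1 (k e)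
  have a3 : N ≤ C ⊓ centralizer {t0} := fun n hn' => ⟨h.le (hN hn'), mc.mpr (by
    have b1 : n * t0 * n⁻¹ * t0 ∈ N := by
      have := mul_mem hn' (conj_mem_of_mem_normalizer (hn (h.le h.m0)) (inv_mem hn'))
      rwa [inv_sq h.q0, ← mul_assoc, ← mul_assoc] at this
    have b2 := a2 _ b1 (by
      rcases h.per n (hN hn') with l | l | l <;> rw [l]
      · rw [h.q0, one_mul]
      · rw [mul_assoc, ← mul_assoc t0, h.c01, mul_assoc, h.q0, mul_one, h.q1]
      · rw [h.c01, mul_assoc t1, h.q0, mul_one, h.q1])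
    rw [← mul_inv_eq_iff_eq_mul, eq_inv_of_mul_eq_one_left b2, inv_sq h.q0])⟩
  refine (Nat.Coprime.pow_right 3 ?_).dvd_of_dvd_mul_left (show _ ∣ 2 ^ 3 * 7 from (card_dvd_of_le a3).trans h.c0)
  refine ((Nat.Prime.coprime_iff_not_dvd Nat.prime_two).mpr fun d => ?_).symm
  haveI : Fact (Nat.Prime 2) := ⟨Nat.prime_two⟩
  obtain ⟨w, hw, e⟩ := exists_orderOf_eq_prime d
  rw [a2 w hw (sq_of_ord e)] at e; simp at e

include xC ox xs hs in
theorem main : Nat.card C = 840 ∧ ∃ I, IsInternalDirectProduct (zpowers u) I C ∧ Nonempty (I ≃* Equiv.Perm (Fin 5)) := by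
  classical
  obtain ⟨I, hI, i1, -⟩ := cc (p := 7) (by norm_num) h.ou h.uC h.cu h.n49
  let φ := (MulAction.toPermHom C (C ⧸ Y.subgroupOf C)).comp (inclusion hI.2.1)
  have a1 : Function.Injective φ := (injective_iff_map_eq_one _).mpr fun a ha => by
    have b1 : (a : G) ∈ (Y.subgroupOf C).normalCore.map C.subtype :=
      ⟨inclusion hI.2.1 a, by rw [normalCore_eq_ker]; exact ha, rfl⟩
    have b2 := h.core zs xC ox xs (N := (Y.subgroupOf C).normalCore.map C.subtype)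
      (map_le_iff_le_comap.mpr (normalCore_le _)) (map_subtype_le_normalizer _)
    have b3 := (orderOf_dvd_natCard _ b1).trans b2
    have b4 := I.orderOf_dvd_natCard a.2
    have b5 : ¬ 7 ∣ Nat.card I := fun d => h.n49 (by rw [i1, pow_two]; exact Nat.mul_dvd_mul_left _ d)
    rcases (Nat.dvd_prime (by norm_num)).mp b3 with e | e
    · exact Subtype.ext (orderOf_eq_one_iff.mp e)
    · exact (b5 (e ▸ b4)).elim
  haveI := Fintype.ofFinite (C ⧸ Y.subgroupOf C)
  have a2 := card_dvd_of_injective φ a1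
  have a3 := card_mul_relIndex h.le
  have a4 := h.le840 zs xC ox xs hs
  have a5 : Nat.card (Equiv.Perm (C ⧸ Y.subgroupOf C)) = (Y.relIndex C).factorial := by
    rw [Nat.card_perm]; rfl
  have a6 := card_pos' C
  rw [h.card] at a3
  rw [a5, show Nat.card I = 24 * Y.relIndex C by omega] at a2
  have a7 : Y.relIndex C = 5 := by
    have : Y.relIndex C ≤ 5 := by omega
    have : 0 < Y.relIndex C := by omega
    generalize Y.relIndex C = n at *
    interval_cases n <;> simp_all [Nat.factorial]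
  refine ⟨by omega, I, hI, ⟨(MulEquiv.ofBijective φ ((Nat.bijective_iff_injective_and_card φ).mpr ⟨a1, ?_⟩)).trans
    (Equiv.permCongrHom (Finite.equivFinOfCardEq a7))⟩⟩
  rw [a5, a7]; simp [Nat.factorial]; omega

end D7

end Cfsg.Agent.J4C
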